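import Cfsg.Agent.Lib.Helper37.U27.Defs

/-!
# Project U27 (S5999): package [RSUB]
-/

set_option autoImplicit false
open scoped MatrixGroups Matrix

namespace Cfsg.Agent.Lib.Helper92.U27

open Cfsg.Agent.Lib.Helper37.U27

universe u

variable {F : Type u} [Field F]

theorem cube_of_root (w : F) (hw : w ^ 2 + w + 1 = 0) : w ^ 3 = 1 := by
  have h : w ^ 3 - 1 = (w - 1) * (w ^ 2 + w + 1) := by ring
  rw [hw, mul_zero] at h
  exact sub_eq_zero.mp h

theorem pow_of_cube (w : F) (hw3 : w ^ 3 = 1) (q : ℕ) (h3 : 3 ∣ q + 1) : w ^ (q + 1) = 1 := by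
  obtain ⟨k, hk⟩ := h3
  rw [hk, pow_mul, hw3, one_pow]

/-- A unit with matrix `Xm` is unitary. -/
theorem Xm_mem_GU (q : ℕ) (y : GL (Fin 3) F) (hy : (y : Matrix (Fin 3) (Fin 3) F) = Xm F) :
    y ∈ Cfsg.GU 3 F q := by
  intro a b
  show Cfsg.hermForm 3 F q ((y : Matrix (Fin 3) (Fin 3) F) *ᵥ a)
    ((y : Matrix (Fin 3) (Fin 3) F) *ᵥ b) = Cfsg.hermForm 3 F q a b
  rw [hy]
  unfold Cfsg.hermForm
  simp [Xm, Matrix.mulVec, dotProduct, Fin.sum_univ_three]
  ring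

/-- A unit with matrix `Xm` has determinant one. -/
theorem Xm_mem_SL (y : GL (Fin 3) F) (hy : (y : Matrix (Fin 3) (Fin 3) F) = Xm F) :
    y ∈ Cfsg.Geo.specialLinear (Fin 3) F := by
  show Matrix.GeneralLinearGroup.det y = 1
  apply Units.ext
  rw [Matrix.GeneralLinearGroup.val_det_apply, hy]
  simp [Xm, Matrix.det_fin_three]

/-- A unit with a diagonal matrix with norm-one entries is unitary. -/
theorem diag_mem_GU (q : ℕ) (y : GL (Fin 3) F) (d : Fin 3 → F)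
    (hy : (y : Matrix (Fin 3) (Fin 3) F) = Matrix.diagonal d) (h : ∀ i, d i ^ (q + 1) = 1) :
    y ∈ Cfsg.GU 3 F q := by
  intro a b
  show Cfsg.hermForm 3 F q ((y : Matrix (Fin 3) (Fin 3) F) *ᵥ a)
    ((y : Matrix (Fin 3) (Fin 3) F) *ᵥ b) = Cfsg.hermForm 3 F q a b
  rw [hy]
  unfold Cfsg.hermForm
  apply Finset.sum_congr rfl
  intro i _
  rw [Matrix.mulVec_diagonal, Matrix.mulVec_diagonal, mul_pow]
  have e : d i * a i * (d i ^ q * b i ^ q) = d i ^ (q + 1) * (a i * b i ^ q) := by ring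
  rw [e, h i, one_mul]

/-- A unit with a diagonal matrix of determinant one is in `SL`. -/
theorem diag_mem_SL (y : GL (Fin 3) F) (d : Fin 3 → F)
    (hy : (y : Matrix (Fin 3) (Fin 3) F) = Matrix.diagonal d) (h : d 0 * d 1 * d 2 = 1) :
    y ∈ Cfsg.Geo.specialLinear (Fin 3) F := by
  show Matrix.GeneralLinearGroup.det y = 1
  apply Units.ext
  rw [Matrix.GeneralLinearGroup.val_det_apply, hy, Matrix.det_diagonal, Fin.prod_univ_three, h]
  rfl

/-- `R0 w ≤ SU_3(q)`. -/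
theorem R0_le_Gp (q : ℕ) (w : F) (h3 : 3 ∣ q + 1) (hw : w ^ 2 + w + 1 = 0) :
    R0 w ≤ Gp F q := by
  have hw3 := cube_of_root w hw
  have hwq := pow_of_cube w hw3 q h3
  unfold R0
  rw [Subgroup.closure_le]
  rintro y (hy | hy)
  · exact Subgroup.mem_inf.mpr ⟨Xm_mem_GU q y hy, Xm_mem_SL y hy⟩
  · have hy' : (y : Matrix (Fin 3) (Fin 3) F) = Matrix.diagonal ![1, w, w ^ 2] := hy
    refine Subgroup.mem_inf.mpr ⟨diag_mem_GU q y _ hy' ?_, diag_mem_SL y _ hy' ?_⟩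
    · intro i
      fin_cases i
      · show (1 : F) ^ (q + 1) = 1
        exact one_pow _
      · show w ^ (q + 1) = 1
        exact hwq
      · show (w ^ 2) ^ (q + 1) = 1
        rw [← pow_mul, mul_comm, pow_mul, hwq, one_pow]
    · show (1 : F) * w * w ^ 2 = 1
      rw [one_mul, ← pow_succ', hw3]

/-- [RSUB] `R0 w ≤ SU_3(q)`, hence so is every unitary conjugate. -/
theorem pkgRSub : PkgRSub.{u} := by
  intro F _ _ q w g y _ h3 hw hg hy
  have h := R0_le_Gp q w h3 hw hy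
  obtain ⟨h1, h2⟩ := Subgroup.mem_inf.mp h
  have hn : (Cfsg.Geo.specialLinear (Fin 3) F).Normal := by
    show ((Matrix.GeneralLinearGroup.det : GL (Fin 3) F →* Fˣ).ker).Normal
    infer_instance
  have e : g * (g⁻¹ * y * g) * g⁻¹ = y := by group
  refine Subgroup.mem_inf.mpr ⟨?_, ?_⟩
  · rw [← e]
    exact Subgroup.mul_mem _ (Subgroup.mul_mem _ hg h1) (Subgroup.inv_mem _ hg)
  · rw [← e]
    exact hn.conj_mem _ h2 g

end Cfsg.Agent.Lib.Helper92.U27
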