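import Cfsg.Agent.Lib.Helper37.U27.Defs
import Cfsg.Agent.Lib.Helper45.HermGU
import Cfsg.Agent.Lib.Helper92.U27.RSub

/-!
# Project U27 (S5999): package [CARD3]
-/

set_option autoImplicit false
open scoped MatrixGroups Matrix

namespace Cfsg.Agent.Lib.Helper92.U27

open Cfsg.Agent.Lib.Helper37.U27

universe u

/-- The `3`-part of `|GU_3(p)|` is `81` for `p ≡ 2, 5 (mod 9)`. -/
theorem card3_arith (p : ℕ) (h3 : p % 3 = 2) (h9 : p % 9 ≠ 8) :
    ¬ 243 ∣ p ^ 3 * ((p + 1) * (p ^ 2 - 1) * (p ^ 3 + 1)) := by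
  obtain ⟨m, rfl⟩ : ∃ m, p = 3 * m + 2 := ⟨p / 3, by omega⟩
  have e1 : 3 * m + 2 + 1 = 3 * (m + 1) := by ring
  have e2 : (3 * m + 2) ^ 2 - 1 = 3 * ((3 * m + 1) * (m + 1)) := by
    apply Nat.sub_eq_of_eq_add
    ring
  have e3 : (3 * m + 2) ^ 3 + 1 = 9 * ((m + 1) * (3 * (m * m + m) + 1)) := by ring
  intro hdvd
  rw [e1, e2, e3] at hdvd
  have e4 : (3 * m + 2) ^ 3 * (3 * (m + 1) * (3 * ((3 * m + 1) * (m + 1))) *
      (9 * ((m + 1) * (3 * (m * m + m) + 1)))) =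
      81 * ((3 * m + 2) ^ 3 * (m + 1) ^ 3 * (3 * m + 1) * (3 * (m * m + m) + 1)) := by ring
  rw [e4] at hdvd
  have h243 : (243 : ℕ) = 81 * 3 := by norm_num
  rw [h243] at hdvd
  have hK : 3 ∣ (3 * m + 2) ^ 3 * (m + 1) ^ 3 * (3 * m + 1) * (3 * (m * m + m) + 1) :=
    (Nat.mul_dvd_mul_iff_left (by norm_num : 0 < 81)).mp hdvd
  have hp3 : Nat.Prime 3 := Nat.prime_three
  rcases (Nat.Prime.dvd_mul hp3).mp hK with hK | hK
  · rcases (Nat.Prime.dvd_mul hp3).mp hK with hK | hK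
    · rcases (Nat.Prime.dvd_mul hp3).mp hK with hK | hK
      · have := hp3.dvd_of_dvd_pow hK
        omega
      · have := hp3.dvd_of_dvd_pow hK
        omega
    · omega
  · obtain ⟨k, hk⟩ : ∃ k, k = m * m + m := ⟨_, rfl⟩
    rw [← hk] at hK
    omega

/-- [CARD3] `|SU_3(p)|_3 = 27` for `p ≡ 2, 5 (mod 9)`. -/
theorem pkgCard3 : PkgCard3.{u} := by
  intro F _ _ p hp hF h3 h9
  classical
  have : Fact (Nat.Prime 3) := ⟨Nat.prime_three⟩
  have hp2 : 2 ≤ p := hp.two_le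
  have h3p : 3 ∣ p + 1 := by omega
  -- an element of order 3 of `Fˣ`
  have hcard : Fintype.card Fˣ = (p - 1) * (p + 1) := by
    rw [Fintype.card_units, hF]
    obtain ⟨j, rfl⟩ : ∃ j, p = j + 1 := ⟨p - 1, by omega⟩
    have e : (j + 1) ^ 2 = j * (j + 1 + 1) + 1 := by ring
    rw [e]
    simp
  have h3card : 3 ∣ Fintype.card Fˣ := by
    rw [hcard]
    exact Dvd.dvd.mul_left h3p _
  obtain ⟨w, hw⟩ := exists_prime_orderOf_dvd_card 3 h3card
  have hw3 : w ^ 3 = 1 := by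
    rw [← hw]
    exact pow_orderOf_eq_one w
  have hwq : (w : F) ^ (p + 1) = 1 := by
    obtain ⟨k, hk⟩ := h3p
    rw [hk, pow_mul, ← Units.val_pow_eq_pow_val, hw3, Units.val_one, one_pow]
  -- the diagonal matrix `diag(w, 1, 1)`
  have hdet : (Matrix.diagonal ![(w : F), 1, 1]).det ≠ 0 := by
    rw [Matrix.det_diagonal, Fin.prod_univ_three]
    show (w : F) * 1 * 1 ≠ 0
    rw [mul_one, mul_one]
    exact w.ne_zero
  obtain ⟨x, hx⟩ : ∃ x : GL (Fin 3) F,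
      (x : Matrix (Fin 3) (Fin 3) F) = Matrix.diagonal ![(w : F), 1, 1] :=
    ⟨Matrix.GeneralLinearGroup.mkOfDetNeZero _ hdet, rfl⟩
  have hxGU : x ∈ Cfsg.GU 3 F p := by
    apply diag_mem_GU p x _ hx
    intro i
    fin_cases i
    · exact hwq
    · exact one_pow _
    · exact one_pow _
  have hxdet : Matrix.GeneralLinearGroup.det x = w := by
    apply Units.ext
    rw [Matrix.GeneralLinearGroup.val_det_apply, hx, Matrix.det_diagonal, Fin.prod_univ_three]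
    show (w : F) * 1 * 1 = w
    rw [mul_one, mul_one]
  -- the determinant on `GU`
  obtain ⟨φ, hφ⟩ : ∃ φ : ↥(Cfsg.GU 3 F p) →* Fˣ,
      φ = (Matrix.GeneralLinearGroup.det : GL (Fin 3) F →* Fˣ).comp (Cfsg.GU 3 F p).subtype :=
    ⟨_, rfl⟩
  have hker : φ.ker = (Cfsg.Geo.specialLinear (Fin 3) F).subgroupOf (Cfsg.GU 3 F p) := by
    ext g
    rw [MonoidHom.mem_ker, Subgroup.mem_subgroupOf, hφ]
    rfl
  have hcardker : Nat.card φ.ker = Nat.card (Gp F p) := by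
    rw [hker, ← Subgroup.inf_subgroupOf_left]
    exact Nat.card_congr (Subgroup.subgroupOfEquivOfLe
      (inf_le_left : Cfsg.GU 3 F p ⊓ Cfsg.Geo.specialLinear (Fin 3) F ≤ Cfsg.GU 3 F p)).toEquiv
  have hrange : 3 ∣ Nat.card φ.range := by
    have hmem : w ∈ φ.range := ⟨⟨x, hxGU⟩, by rw [hφ]; exact hxdet⟩
    have h1 : orderOf (⟨w, hmem⟩ : φ.range) = 3 := by
      rw [Subgroup.orderOf_mk, hw]
    have h2 := orderOf_dvd_natCard (⟨w, hmem⟩ : φ.range)
    rw [h1] at h2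
    exact h2
  have hmul : Nat.card φ.ker * Nat.card φ.range = Nat.card (Cfsg.GU 3 F p) := by
    rw [← Subgroup.index_ker]
    exact Subgroup.card_mul_index φ.ker
  have hGU := Cfsg.Agent.Lib.Helper45.card_GU hF 3
  have hprod : p ^ (3 * (3 - 1) / 2) * ∏ i ∈ Finset.range 3,
      (if Even i then p ^ (i + 1) + 1 else p ^ (i + 1) - 1) =
      p ^ 3 * ((p + 1) * (p ^ 2 - 1) * (p ^ 3 + 1)) := by
    have e0 : Even 0 := ⟨0, rfl⟩
    have e1 : ¬ Even 1 := by decide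
    have e2 : Even 2 := ⟨1, rfl⟩
    rw [Finset.prod_range_succ, Finset.prod_range_succ, Finset.prod_range_succ,
      Finset.prod_range_zero, if_pos e0, if_neg e1, if_pos e2]
    norm_num
  rw [hprod] at hGU
  intro h81
  apply card3_arith p h3 h9
  rw [← hGU, ← hmul, hcardker]
  have h243 : (243 : ℕ) = 81 * 3 := by norm_num
  rw [h243]
  exact mul_dvd_mul h81 hrange

end Cfsg.Agent.Lib.Helper92.U27
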